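import Cfsg.Agent.H9.L4.Mono2

/-! Imprimitive maximal subgroups of `SL_5(q)`. -/

set_option autoImplicit false
set_option linter.unusedSimpArgs false
set_option linter.unusedSectionVars false
set_option linter.unusedVariables false

namespace Cfsg.Agent.H9.L5

open Module Cfsg.Agent.H6
open Cfsg.Agent.H9.L4 (mono_of_fixes4 mono_of_col4 exists_tw)

attribute [-simp] LinearEquiv.coe_inv Submodule.mem_map_equiv

variable {F : Type*} [Field F]

section Gen

variable {ι : Type} [Fintype ι] [DecidableEq ι] {M : Subgroup ((ι → F) ≃ₗ[F] (ι → F))}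
  [Fintype F] (hq : 5 ≤ Fintype.card F) (hn : 5 ≤ Fintype.card ι) (hM : M ≤ SLV F (ι → F))
  (hH : ∀ g ∈ SLV F (ι → F), g ∈ monoSub F ι F → g ∈ M) (hne : ¬ SLV F (ι → F) ≤ M)
include hq hn hM hH hne

theorem two_zero_aux5 {k : (ι → F) ≃ₗ[F] (ι → F)} (hk : k ∈ M) {i a b : ι} (hab : a ≠ b)
    (ha : k (Pi.single i 1) a = 0) (hb : k (Pi.single i 1) b = 0) :
    ∃ J : Finset ι, J.card ≤ 2 ∧ ∀ l ∉ J, k⁻¹ (Pi.single a 1) l = 0 ∧ k⁻¹ (Pi.single b 1) l = 0 := by
  classical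
  obtain ⟨t, ht0, ht1, -, ht2, ht3⟩ := exists_gen hq
  have hfix : ∀ v : ι → F, v a = 0 → v b = 0 → dd a b t ht0 v = v := fun v h1 h2 => by
    ext l
    rw [dd_apply hab]
    split_ifs with h3 h4
    · simp [h3, h1]
    · simp [h4, h2]
    · rfl
  set y := k⁻¹ * dd a b t ht0 * k with hy
  have hy' : ∀ v, k (y v) = dd a b t ht0 (k v) := fun v => by simp [hy]
  have hym : y ∈ monoSub F ι F := mono_of_fixes4 hq (by omega) hM hH hne (o := i)
    (M.mul_mem (M.mul_mem (M.inv_mem hk) (dd_mem hH _ _ _ _)) hk) fun l hl => by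
      simp [hy, hfix _ ha hb, hl]
  have hr : ∀ v, (co a ∘ₗ (k : (ι → F) →ₗ[F] (ι → F))) v = 0 →
      (co b ∘ₗ (k : (ι → F) →ₗ[F] (ι → F))) v = 0 → y v = v :=
    fun v h1 h2 => k.injective (by rw [hy', hfix (k v) h1 h2])
  refine ⟨Finset.univ.filter fun l => y (Pi.single l 1) ≠ Pi.single l 1, ?_, fun l hl => ?_⟩
  · by_contra! h
    obtain ⟨p, q, r, h1, h2, h3, h4, h5, h6⟩ := Finset.two_lt_card_iff.1 h
    obtain ⟨σ, A, hA⟩ := hym
    obtain ⟨l, h7, h8⟩ := mono_cyc hA hr h4 h5 h6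
    have h9 : y (Pi.single l 1) ≠ Pi.single l 1 := by
      simp only [Finset.mem_filter] at h1 h2 h3
      rcases h7 with rfl | rfl | rfl
      exacts [h1.2, h2.2, h3.2]
    apply h9
    rcases h8 with h8 | h8 | ⟨h8, -⟩
    · exact h8
    · have e := congrArg k h8
      rw [hy', hy'] at e
      have e1 := congrFun e a
      have e2 := congrFun e b
      simp only [dd_apply hab, if_true, hab.symm, if_false] at e1 e2
      refine hr _ ?_ ?_
      · by_contra h10
        exact ht2 (mul_right_cancel₀ h10 (by simpa [sq, mul_assoc] using e1))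
      · by_contra h10
        apply ht2
        have : t⁻¹ ^ 2 = 1 := mul_right_cancel₀ h10 (by simpa [sq, mul_assoc] using e2)
        simpa using this
    · have e := congrArg k h8
      rw [hy', hy', hy'] at e
      have e1 := congrFun e a
      have e2 := congrFun e b
      simp only [dd_apply hab, if_true, hab.symm, if_false] at e1 e2
      refine hr _ ?_ ?_
      · by_contra h10
        exact ht3 (mul_right_cancel₀ h10 (by simpa [pow_succ, mul_assoc] using e1))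
      · by_contra h10
        apply ht3
        have : t⁻¹ ^ 3 = 1 := mul_right_cancel₀ h10 (by simpa [pow_succ, mul_assoc] using e2)
        simpa using this
  · have h1 := mono_apply_of_fix hym (l := l) (by simpa using hl)
    have e1 : dd a b t ht0 (Pi.single a 1) = t • Pi.single a 1 := by
      ext m
      by_cases hm : m = a <;> simp [dd_apply hab, hm]
    have e2 : dd a b t ht0 (Pi.single b 1) = t⁻¹ • Pi.single b 1 := by
      ext m
      by_cases hm : m = b <;> simp [dd_apply hab, hm, hab.symm]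
    have h2 := h1 (k⁻¹ (Pi.single a 1))
    have h3 := h1 (k⁻¹ (Pi.single b 1))
    simp only [hy, LinearEquiv.mul_apply, apply_inv_apply, e1, e2, map_smul, Pi.smul_apply,
      smul_eq_mul] at h2 h3
    constructor
    · by_contra h4
      exact ht1 (mul_right_cancel₀ h4 (by rw [h2, one_mul]))
    · by_contra h4
      exact ht1 (inv_eq_one.1 (mul_right_cancel₀ h4 (by rw [h3, one_mul])))

theorem mono_of_two_zero5 {k : (ι → F) ≃ₗ[F] (ι → F)} (hk : k ∈ M) {i a b : ι} (hab : a ≠ b)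
    (ha : k (Pi.single i 1) a = 0) (hb : k (Pi.single i 1) b = 0) : k ∈ monoSub F ι F := by
  obtain ⟨J, hJ, hJ'⟩ := two_zero_aux5 hq hn hM hH hne hk hab ha hb
  obtain ⟨c, d, e, h1, h2, h3, hcd, hce, hde⟩ := Finset.two_lt_card_iff.1
    (show 2 < Jᶜ.card by rw [Finset.card_compl]; omega)
  rw [Finset.mem_compl] at h1 h2 h3
  obtain ⟨J₁, hJ₁, hJ₁'⟩ := two_zero_aux5 hq hn hM hH hne (M.inv_mem hk) hcd (hJ' c h1).1
    (hJ' d h2).1
  obtain ⟨J₂, hJ₂, hJ₂'⟩ := two_zero_aux5 hq hn hM hH hne (M.inv_mem hk) hce (hJ' c h1).1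
    (hJ' e h3).1
  rw [inv_inv] at hJ₁' hJ₂'
  obtain ⟨p, hp⟩ := Function.ne_iff.1 (show k (Pi.single c 1) ≠ 0 by simp)
  replace hp : k (Pi.single c 1) p ≠ 0 := hp
  refine mono_of_col4 hq (by omega) hM hH hne hk (i := c) (j := p) fun q hqp => ?_
  by_contra hq'
  have key : ∀ J : Finset ι, J.card ≤ 2 → (∀ l ∉ J, k (Pi.single c 1) l = 0) →
      ∀ l, l ≠ p → l ≠ q → l ∉ J := by
    intro J h4 h5 l h6 h7 h8
    have : 2 < J.card := Finset.two_lt_card_iff.2 ⟨p, q, l, by_contra fun h => hp (h5 p h),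
      by_contra fun h => hq' (h5 q h), h8, hqp.symm, h6.symm, h7.symm⟩
    omega
  obtain ⟨f, h4, h5, h6, h7⟩ := exists_supp_three hcd hce hde
    (co p ∘ₗ (k : (ι → F) →ₗ[F] (ι → F))) (co q ∘ₗ (k : (ι → F) →ₗ[F] (ι → F)))
  apply h4
  apply k.injective
  rw [map_zero]
  ext l
  by_cases e1 : l = p
  · rw [e1]; exact h6
  by_cases e2 : l = q
  · rw [e2]; exact h7
  have e3 := hJ₁' l (key J₁ hJ₁ (fun l hl => (hJ₁' l hl).1) l e1 e2)
  have e4 := hJ₂' l (key J₂ hJ₂ (fun l hl => (hJ₂' l hl).1) l e1 e2)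
  have := dual_apply_eq_sum (co l ∘ₗ (k : (ι → F) →ₗ[F] (ι → F))) f
  simp only [LinearMap.comp_apply, LinearEquiv.coe_coe, co_apply] at this
  rw [this]
  refine Finset.sum_eq_zero fun m _ => ?_
  by_cases hm : f m = 0
  · simp [hm]
  rcases h5 m hm with rfl | rfl | rfl
  · simp [e3.1]
  · simp [e3.2]
  · simp [e4.2]

end Gen

theorem exists_gen5 [Fintype F] (hq : 5 ≤ Fintype.card F) : ∃ l : F, l ≠ 0 ∧ l ^ 5 ≠ 1 := by
  classical
  obtain ⟨g, hg⟩ := IsCyclic.exists_ofOrder_eq_natCard (α := Fˣ)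
  rw [Nat.card_units, Nat.card_eq_fintype_card] at hg
  refine ⟨g, g.ne_zero, fun h => ?_⟩
  have h1 := orderOf_dvd_of_pow_eq_one (x := g) (n := 5) (Units.ext (by simpa))
  have h2 : Fintype.card F = 6 := by
    rcases (Nat.dvd_prime (by norm_num)).1 h1 with h | h <;> omega
  have h3 := FiniteField.isPrimePow_card F
  rw [h2] at h3
  revert h3
  decide

section Main

variable [Fintype F] {M : Subgroup ((Fin 5 → F) ≃ₗ[F] (Fin 5 → F))}
  (hq : 5 ≤ Fintype.card F) (hM : M ≤ SLV F (Fin 5 → F))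
  (hH : ∀ g ∈ SLV F (Fin 5 → F), g ∈ monoSub F (Fin 5) F → g ∈ M) (hne : ¬ SLV F (Fin 5 → F) ≤ M)
include hq hM hH hne

theorem eig_col {g : (Fin 5 → F) ≃ₗ[F] (Fin 5 → F)} (hg : g ∈ M) {δ : Fin 5 → F} {a : Fin 5}
    (hδ : ∀ m ≠ a, δ m ≠ δ a)
    (h : ∀ i, ∃ c, ∀ m, δ m * g (Pi.single i 1) m = c * g (Pi.single i 1) m) :
    g ∈ monoSub F (Fin 5) F := by
  obtain ⟨i, hi⟩ := exists_single_ne (ξ := co a ∘ₗ (g : (Fin 5 → F) →ₗ[F] (Fin 5 → F))) (fun h0 => by
    simpa using LinearMap.congr_fun h0 (g⁻¹ (Pi.single a 1)))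
  obtain ⟨c, hc⟩ := h i
  refine mono_of_col4 hq (by simp) hM hH hne hg (i := i) (j := a) fun l hl => ?_
  by_contra h0
  exact hδ l hl ((mul_right_cancel₀ h0 (hc l)).trans (mul_right_cancel₀ hi (hc a)).symm)

theorem conj_mono {g d : (Fin 5 → F) ≃ₗ[F] (Fin 5 → F)} (hg : g ∈ M) (hd : d ∈ M) {o : Fin 5} {c : F}
    (h : d (g (Pi.single o 1)) = c • g (Pi.single o 1)) :
    ∃ (σ : Equiv.Perm (Fin 5)) (A : Fin 5 → F), σ o = o ∧ (∀ i, A i ≠ 0) ∧
      ∀ i, d (g (Pi.single i 1)) = A i • g (Pi.single (σ i) 1) := by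
  have h1 : (g⁻¹ * d * g) (Pi.single o 1) = c • Pi.single o 1 := by simp [h]
  obtain ⟨σ, A, hA⟩ := mono_of_fixes4 hq (by simp) hM hH hne (o := o)
    (mul_mem (mul_mem (inv_mem hg) hd) hg) fun i hi => by simp [h1, hi]
  have h2 := mono_single hA
  have h3 : ∀ i, A i 1 ≠ 0 := fun i => by simp
  refine ⟨σ, fun i => A i 1, ?_, h3, fun i => ?_⟩
  · by_contra e
    have := congrFun ((h2 o).symm.trans h1) (σ o)
    simp [e] at this
  · rw [← map_smul, ← single_eq_smul, ← h2]; simp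

theorem one_zero {g : (Fin 5 → F) ≃ₗ[F] (Fin 5 → F)} (hg : g ∈ M) {o a : Fin 5}
    (ha : g (Pi.single o 1) a = 0) : g ∈ monoSub F (Fin 5) F := by
  obtain ⟨t, t0, t5⟩ := exists_gen5 hq
  obtain ⟨b, c, d, f, h1, h2, h3, h4, h5, h6, h7, h8, h9, h10, h11⟩ : ∃ b c d f, b ≠ a ∧ c ≠ a ∧
      d ≠ a ∧ f ≠ a ∧ b ≠ c ∧ b ≠ d ∧ b ≠ f ∧ c ≠ d ∧ c ≠ f ∧ d ≠ f ∧
      ∀ m, m = a ∨ m = b ∨ m = c ∨ m = d ∨ m = f :=
    ⟨a + 1, a + 2, a + 3, a + 4, by clear * -; revert a; decide⟩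
  have hD := mul_mem (mul_mem (mul_mem (dd_mem hH b a t t0) (dd_mem hH c a t t0)) (dd_mem hH d a t t0))
    (dd_mem hH f a t t0)
  set D := dd b a t t0 * dd c a t t0 * dd d a t t0 * dd f a t t0 with hD'
  have e : ∀ x m, D x m = (if m = a then t⁻¹ * t⁻¹ * t⁻¹ * t⁻¹ else t) * x m := fun x m => by
    rcases h11 m with rfl | rfl | rfl | rfl | rfl <;>
      simp [hD', dd_apply, h1, h2, h3, h4, h5, h6, h7, h8, h9, h10, h1.symm, h2.symm, h3.symm,
        h4.symm, h5.symm, h6.symm, h7.symm, h8.symm, h9.symm, h10.symm, mul_assoc]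
  obtain ⟨σ, A, s1, s2, s3⟩ := conj_mono hq hM hH hne hg hD (o := o) (c := t) (by
    ext m; by_cases h : m = a <;> simp [e, h, ha])
  by_cases h : ∀ i, σ i = i
  · refine eig_col hq hM hH hne hg (δ := fun m => if m = a then t⁻¹ * t⁻¹ * t⁻¹ * t⁻¹ else t) (a := a)
      (fun m hm => ?_) fun i => ⟨A i, fun m => by simpa [e, h] using congrFun (s3 i) m⟩
    simp only [hm, if_false, if_true]
    exact fun e => t5 (by field_simp at e; linear_combination e)
  push Not at h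
  obtain ⟨i, hi⟩ := h
  obtain ⟨p, q, p1, p2, q1, q2, pq⟩ : ∃ p q, p ≠ i ∧ p ≠ σ i ∧ q ≠ i ∧ q ≠ σ i ∧ p ≠ q := by
    generalize σ i = j; clear * -; revert i j; decide
  have e1 : A i • (Pi.single (σ i) 1 : Fin 5 → F) - t • Pi.single i 1 =
      ((t⁻¹ * t⁻¹ * t⁻¹ * t⁻¹ - t) * g (Pi.single i 1) a) • g⁻¹ (Pi.single a 1) := g.injective (by
    rw [map_sub, map_smul, map_smul, map_smul, ← s3, apply_inv_apply]
    ext m; by_cases h : m = a <;> simp [e, h, sub_mul])
  have e2 : (t⁻¹ * t⁻¹ * t⁻¹ * t⁻¹ - t) * g (Pi.single i 1) a ≠ 0 := fun h => by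
    simpa [h, hi, s2] using congrFun e1 (σ i)
  simpa using inv_mem (mono_of_two_zero5 hq (by simp) hM hH hne (inv_mem hg) (i := a) pq
    (by simpa [p1, p2, e2] using (congrFun e1 p).symm) (by simpa [q1, q2, e2] using (congrFun e1 q).symm))

theorem mono_of_mem5 {g : (Fin 5 → F) ≃ₗ[F] (Fin 5 → F)} (hg : g ∈ M) :
    g ∈ monoSub F (Fin 5) F := by
  classical
  by_contra hg'
  obtain ⟨o⟩ : Nonempty (Fin 5) := inferInstance
  set v := g (Pi.single o 1) with hv
  have v0 : ∀ a, v a ≠ 0 := fun a h => hg' (one_zero hq hM hH hne hg h)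
  obtain ⟨a, b, c, hab, hac, hbc⟩ : ∃ a b c : Fin 5, a ≠ b ∧ a ≠ c ∧ b ≠ c := ⟨0, 1, 2, by decide⟩
  have ha := v0 a
  have hb := v0 b
  have hc := v0 c
  obtain ⟨τ₁, m₁, d₁, e₁⟩ := exists_tw v hab ha hb
  obtain ⟨τ₂, m₂, d₂, e₂⟩ := exists_tw v hbc hb hc
  have hs : τ₁ * τ₂ ∈ M := hH _ (by
    rw [mem_SLV', LinearEquiv.coe_toLinearMap_mul, map_mul, d₁, d₂]; simp) (mul_mem m₁ m₂)
  set s := τ₁ * τ₂ with hsdef
  have sa : ∀ x, s x a = v a * (x c / v c) := fun x => by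
    simp [hsdef, e₁, e₂, hb]
  have sb : ∀ x, s x b = v b * (x a / v a) := fun x => by
    simp [hsdef, e₁, e₂, hab, hac, hab.symm]
  have sc : ∀ x, s x c = v c * (x b / v b) := fun x => by
    simp [hsdef, e₁, e₂, hac.symm, hbc.symm]
  have so : ∀ x l, l ≠ a → l ≠ b → l ≠ c → s x l = x l := fun x l h1 h2 h3 => by
    simp [hsdef, e₁, e₂, h1, h2, h3]
  have sfix : ∀ x, x a / v a = x b / v b → x b / v b = x c / v c → s x = x := by
    intro x h1 h2
    ext l
    by_cases h3 : l = a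
    · rw [h3, sa, ← h2, ← h1]; field_simp
    by_cases h4 : l = b
    · rw [h4, sb, h1]; field_simp
    by_cases h5 : l = c
    · rw [h5, sc, h2]; field_simp
    exact so x l h3 h4 h5
  set y := g⁻¹ * s * g with hy
  have hy' : ∀ x, g (y x) = s (g x) := fun x => by simp [hy]
  have hyo : y (Pi.single o 1) = Pi.single o 1 :=
    g.injective (by rw [hy', sfix _ (by simp [← hv, ha, hb]) (by simp [← hv, hb, hc])])
  have hym : y ∈ monoSub F (Fin 5) F := mono_of_fixes4 hq (by simp) hM hH hne (o := o)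
    (M.mul_mem (M.mul_mem (M.inv_mem hg) hs) hg) fun l hl => by simp [hyo, hl]
  let φ₁ : Dual F (Fin 5 → F) := (v a)⁻¹ • co a - (v b)⁻¹ • co b
  let φ₂ : Dual F (Fin 5 → F) := (v b)⁻¹ • co b - (v c)⁻¹ • co c
  have hr : ∀ x : (Fin 5) → F, (φ₁ ∘ₗ (g : (Fin 5 → F) →ₗ[F] (Fin 5 → F))) x = 0 →
      (φ₂ ∘ₗ (g : (Fin 5 → F) →ₗ[F] (Fin 5 → F))) x = 0 → y x = x := by
    intro x h1 h2
    simp only [φ₁, φ₂, LinearMap.comp_apply, LinearEquiv.coe_coe, LinearMap.sub_apply,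
      LinearMap.smul_apply, co_apply, smul_eq_mul, sub_eq_zero, ← div_eq_inv_mul] at h1 h2
    exact g.injective (by rw [hy', sfix _ h1 h2])
  have hsq : ∀ x, y (y x) = x → y x = x := by
    intro x h
    have e := congrArg g h
    rw [hy', hy'] at e
    have e1 := congrFun e a
    have e2 := congrFun e b
    rw [sa, sc] at e1
    rw [sb, sa] at e2
    refine g.injective (by
      rw [hy', sfix _ (by rw [← e1]; field_simp) (by rw [← e2]; field_simp)])
  set J := Finset.univ.filter fun l => y (Pi.single l 1) ≠ Pi.single l 1 with hJ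
  have hJ3 : J.card ≤ 3 := by
    by_contra! h
    obtain ⟨i, j, k, m, h1, h2, h3, h4, h5, h6, h7, h8, h9, h10⟩ := Finset.three_lt_card_iff.1 h
    obtain ⟨σ, A, hA⟩ := hym
    have key : ∀ j ∈ J, ∀ k ∈ J, i ≠ j → i ≠ k → j ≠ k → σ i = j ∨ σ i = k := by
      intro j hj k hk k1 k2 k3
      obtain ⟨l, k4, k5⟩ := mono_cyc hA hr k1 k2 k3
      have k6 : y (Pi.single l 1) ≠ Pi.single l 1 := by
        simp only [hJ, Finset.mem_filter] at h1 hj hk
        rcases k4 with rfl | rfl | rfl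
        exacts [h1.2, hj.2, hk.2]
      rcases k5 with k5 | k5 | ⟨-, k5⟩
      · exact absurd k5 k6
      · exact absurd (hsq _ k5) k6
      · exact k5
    have k1 := key j h2 k h3 h5 h6 h8
    have k2 := key j h2 m h4 h5 h7 h9
    have k3 := key k h3 m h4 h6 h7 h10
    grind
  obtain ⟨t, ht0, ht1, ht1', ht2, ht3⟩ := exists_gen hq
  have ht4 : t + 1 ≠ 0 := fun h => ht1' (by linear_combination h)
  have ht5 : t ^ 2 + t + 1 ≠ 0 := fun h => ht3 (by linear_combination (t - 1) * h)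
  have hX : -(t * (t + 1))⁻¹ ≠ 0 := by simp [ht0, ht4]
  have hY : -(t ^ 2 / (t + 1)) ≠ 0 := by simp [ht0, ht4]
  have hd := M.mul_mem (dd_mem hH a c _ hX) (dd_mem hH b c _ hY)
  set d := dd a c _ hX * dd b c _ hY with hddef
  let r : (Fin 5) → F := (Pi.single b (v b * (1 + t ^ 2 / (t + 1))) : (Fin 5) → F) +
    (Pi.single c (v c * (-(t * (t + 1))⁻¹ - 1)) : (Fin 5) → F)
  have hdv : d v = v + (s r - r) := by
    ext l
    simp only [hddef, LinearEquiv.mul_apply, dd_apply hac, dd_apply hbc, Pi.add_apply,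
      Pi.sub_apply]
    by_cases h3 : l = a
    · simp [h3, sa, r, hab, hac, hbc.symm]; field_simp; ring
    by_cases h4 : l = b
    · simp [h4, sb, r, hab, hac, hab.symm, hbc]; field_simp; ring
    by_cases h5 : l = c
    · simp [h5, sc, r, hac.symm, hbc.symm, hbc]; field_simp; ring
    simp [h3, h4, h5, so _ l h3 h4 h5]
  have hk := M.mul_mem (M.mul_mem (M.inv_mem hg) hd) hg
  have hko : (g⁻¹ * d * g) (Pi.single o 1) = Pi.single o 1 + (y (g⁻¹ r) - g⁻¹ r) := by
    apply g.injective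
    simp only [LinearEquiv.mul_apply, apply_inv_apply, ← hv, hdv, map_add, map_sub, hy']
  have hzero : ∀ l ∉ J, (y (g⁻¹ r) - g⁻¹ r) l = 0 := fun l hl => by
    rw [Pi.sub_apply, mono_apply_of_fix hym (by simpa [hJ] using hl), sub_self]
  obtain ⟨p, h1⟩ := Finset.card_pos.1
    (show 0 < (insert o J)ᶜ.card by
      have := Finset.card_insert_le o J
      rw [Finset.card_compl, Fintype.card_fin]
      omega)
  simp only [Finset.mem_compl, Finset.mem_insert, not_or] at h1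
  have hkm := one_zero hq hM hH hne hk (o := o) (a := p)
    (by rw [hko, Pi.add_apply, hzero p h1.2]; simp [h1.1])
  obtain ⟨l, hl⟩ := Function.ne_iff.1 (show y (g⁻¹ r) - g⁻¹ r ≠ 0 by
    intro h
    have e := congrArg g h
    rw [map_sub, hy', apply_inv_apply, map_zero] at e
    have e1 := congrFun e b
    simp only [Pi.sub_apply, sb, r, Pi.add_apply, Pi.single_apply, hab, hac, hbc, if_false,
      if_true, Pi.zero_apply, add_zero, zero_div, mul_zero, zero_sub, neg_eq_zero,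
      mul_eq_zero, hb, false_or] at e1
    apply ht5
    field_simp at e1
    linear_combination e1)
  have hoJ : o ∉ J := by simp [hJ, hyo]
  have hlo : l ≠ o := by
    rintro rfl
    exact hl (hzero _ hoJ)
  refine not_mono_of_two (i := o) (a := 1) hlo ?_ ?_ hkm
  · rw [hko]
    simpa [hlo] using hl
  · rw [hko, Pi.add_apply, hzero o hoJ]
    simp

end Main

theorem c2_five [Fintype F] {D : Fin 5 → Submodule F (Fin 5 → F)} (hD : Geo.IsMDecomposition 1 D)
    (hq : 5 ≤ Fintype.card F) : Geo.IsMaximalIn (Geo.specialLinear (Fin 5) F)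
      (Geo.decompositionStabilizer D ⊓ Geo.specialLinear (Fin 5) F) := by
  obtain ⟨e, he⟩ := exists_decomp_equiv (W := F) hD (by simp)
  refine isMaximalIn_of_core e _ (· ∈ monoSub F (Fin 5) F)
    (mem_decompositionStabilizer_iff he) (mono_proper (by simp))
    fun M hM h1 ⟨g, hg, h2⟩ => ?_
  by_contra hne
  exact h2 (mono_of_mem5 hq hM h1 hne hg)

end Cfsg.Agent.H9.L5
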